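import Mathlib
import Cfsg.Agent.FT.BGAppB
import Cfsg.Agent.FT.BG1_15
import Cfsg.Agent.FT.BG8Base

/-!
# Ambient forms of B & G A.4, A.5, 6.1, 6.2 and B.4
-/

set_option autoImplicit false

namespace Cfsg.Agent.FT

open Cfsg Subgroup

variable {G : Type*} [Group G] [Finite G]

theorem exists_sylow_of_syl {p : ℕ} [hp : Fact p.Prime] {S H : Subgroup G} (hS : Syl p S H) :
    ∃ P : Sylow p H, (P : Subgroup H) = S.subgroupOf H :=
  ⟨(((B7.isPGroup_iff_primes hp.out).2 hS.2.1).comap_subtype (K := H)).toSylow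
    (hS.2.2 p hp.out rfl), rfl⟩

omit [Finite G] in
theorem map_subtype_zPuigOf_subgroupOf {S H : Subgroup G} (h : S ≤ H) :
    (zPuigOf (S.subgroupOf H)).map H.subtype = zPuigOf S := by
  rw [map_zPuigOf H.subtype_injective, map_subgroupOf_eq_of_le h]

omit [Finite G] in
theorem zPuigOf_subgroupOf {S H : Subgroup G} (h : S ≤ H) :
    zPuigOf (S.subgroupOf H) = (zPuigOf S).subgroupOf H := by
  apply Subgroup.map_injective H.subtype_injective
  rw [map_subtype_zPuigOf_subgroupOf h, map_subgroupOf_eq_of_le ((zPuigOf_le S).trans h)]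

omit [Finite G] in
theorem cj_zPuigOf (g : G) (S : Subgroup G) : cj g (zPuigOf S) = zPuigOf (cj g S) :=
  map_zPuigOf (MulAut.conj g).injective S

/-- B & G B.4(a), ambient form: `H = O_{p'}(H) N_H(Z(L(S)))`. -/
theorem puig_factorization {p : ℕ} [Fact p.Prime] {S H : Subgroup G} (hH : Group.IsSolvable H)
    (hodd : Odd (Nat.card H)) (hS : Syl p S H) :
    piCoreOf {p}ᶜ H ⊔ (H ⊓ 𝒩(zPuigOf S)) = H := by
  obtain ⟨P, hP⟩ := exists_sylow_of_syl hS
  have h := congrArg (Subgroup.map H.subtype) (pPrimeCore_sup_normalizer_zPuigOf hodd P)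
  rw [Subgroup.map_sup, ← bg1_piCoreOf_compl, hP, zPuigOf_subgroupOf hS.1,
    ← subgroupOf_normalizer_eq ((zPuigOf_le S).trans hS.1), subgroupOf_map_subtype,
    ← MonoidHom.range_eq_map, range_subtype, inf_comm] at h
  exact h

/-- B & G B.4(b), ambient form. -/
theorem zPuigOf_normIn {p : ℕ} [Fact p.Prime] {S H : Subgroup G} (hH : Group.IsSolvable H)
    (hodd : Odd (Nat.card H)) (hS : Syl p S H) (hO : piCoreOf {p}ᶜ H = ⊥) : zPuigOf S ⊴ H := by
  refine ⟨(zPuigOf_le S).trans hS.1, ?_⟩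
  have h := puig_factorization hH hodd hS
  rw [hO, bot_sup_eq] at h
  exact h.ge.trans inf_le_right

/-- B & G 6.2, ambient form: `Z(L(S)) O_{p'}(H)` is normal in `H`. -/
theorem zPuigOf_sup_normIn {p : ℕ} [Fact p.Prime] {S H : Subgroup G} (hH : Group.IsSolvable H)
    (hodd : Odd (Nat.card H)) (hS : Syl p S H) : zPuigOf S ⊔ piCoreOf {p}ᶜ H ⊴ H := by
  obtain ⟨P, hP⟩ := exists_sylow_of_syl hS
  have := zPuigOf_sup_pPrimeCore_normal hodd P
  have h := normIn_map_subtype (zPuigOf (P : Subgroup H) ⊔ pPrimeCore p H)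
  rwa [Subgroup.map_sup, ← bg1_piCoreOf_compl, hP, map_subtype_zPuigOf_subgroupOf hS.1] at h

/-- B & G 6.1, ambient form: an abelian subgroup of `H` normalized by a Sylow `p`-subgroup of `H` lies in
`O_{p',p}(H)`. -/
theorem bg6_1 {p : ℕ} [Fact p.Prime] {S H A : Subgroup G} (hH : Group.IsSolvable H)
    (hodd : Odd (Nat.card H)) (hS : Syl p S H) (hAH : A ≤ H) (hA : IsMulCommutative A)
    (hn : S ≤ 𝒩(A)) : A ≤ (pPrimePCore p H).map H.subtype := by
  obtain ⟨P, hP⟩ := exists_sylow_of_syl hS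
  have h := le_pPrimePCore_of_abelian_normal_sylow hodd P (A := A.subgroupOf H) inferInstance (by
    rw [hP, ← subgroupOf_normalizer_eq hAH]
    exact comap_mono hn)
  rw [← map_subgroupOf_eq_of_le hAH]
  exact map_mono h

/-- B & G A.5(b), ambient form. -/
theorem bgA_5b {p : ℕ} [hp : Fact p.Prime] {P H B : Subgroup G} (hH : Group.IsSolvable H)
    (hodd : Odd (Nat.card H)) (hO : piCoreOf {p}ᶜ H = ⊥) (hPH : P ⊴ H) (hP : IsPGroup p P)
    (hC : piCoreOf {p} H ⊓ 𝒞(P) ≤ P) (hBH : B ≤ H) (hB : IsMulCommutative B) (hPB : P ≤ 𝒩(B)) :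
    B ≤ piCoreOf {p} H := by
  have hO' : pPrimeCore p H = ⊥ := by
    rwa [bg1_piCoreOf_compl, map_eq_bot_iff_of_injective _ H.subtype_injective] at hO
  have := hPH.normal
  have h := le_pCore_of_abelian_normalized hodd hO' (P.subgroupOf H) hP.comap_subtype (by
      rintro x ⟨hx1, hx2⟩
      refine hC ⟨?_, fun y hy => ?_⟩
      · rw [B8.pcore_eq_map hp.out]; exact mem_map_of_mem _ hx1
      · exact congrArg Subtype.val (hx2 ⟨y, hPH.le hy⟩ hy))
    (B := B.subgroupOf H) inferInstance (by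
      rw [← subgroupOf_normalizer_eq hBH]
      exact comap_mono hPB)
  rw [← map_subgroupOf_eq_of_le hBH, B8.pcore_eq_map hp.out]
  exact map_mono h

/-- B & G 6.1 when `O_{p'}(H) = 1`, ambient form. -/
theorem bg6_1' {p : ℕ} [hp : Fact p.Prime] {H B : Subgroup G} (hH : Group.IsSolvable H)
    (hodd : Odd (Nat.card H)) (hO : piCoreOf {p}ᶜ H = ⊥) (hBH : B ≤ H) (hB : IsMulCommutative B)
    (hn : piCoreOf {p} H ≤ 𝒩(B)) : B ≤ piCoreOf {p} H :=
  bgA_5b hH hodd hO (B8.piCoreOf_normIn _ _) (B8.pcore_isPGroup hp.out H) inf_le_left hBH hB hn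

end Cfsg.Agent.FT
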