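import Mathlib
import Cfsg.Agent.FT.PFDefs
import Cfsg.Agent.FT.PF10Base

/-! # Peterfalvi (10.9) -/

set_option autoImplicit false
set_option maxSynthPendingDepth 3

namespace Cfsg.Agent.FT

open Cfsg Cfsg.Agent.Char Cfsg.Agent.FT.Coh Cfsg.Agent.FT.PF7

variable {G : Type*} [Group G] [Fintype G] {M U W W₁ W₂ : Subgroup G} [Fintype M]

theorem pf10_9 (h : PHyp M U W W₁ W₂) (hII : ¬ IsOfTypeII M) (hlt : Nat.card W₁ < Nat.card W₂)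
    {ζ : ↥M → ℂ} (hζ : ζ ∈ seqIndG M ⁅M, M⁆ ⁅M, M⁆ ⊥) (hirr : IsIrrCharacter M ζ)
    (hζ1 : ζ 1 = (Nat.card W₁ : ℕ)) :
    ∃ χ : G → ℂ, tau0 M (muG M W W₁ W₂ 1 - ζ) = etaColG W W₁ W₂ 1 - χ ∧
      IsGeneralizedCharacter G χ ∧ classInner χ χ = 1 ∧
      ∀ ω, classInner χ (etaG W W₁ W₂ ω) = 0 := by
  haveI := Fintype.ofFinite W
  rw [P10.seqIndG_self_bot] at hζ
  obtain ⟨d, n, δ, hc⟩ := P10.consts h hII
  have H := P10.hyp_of h hII hc hζ hirr hζ1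
  obtain ⟨χ, e, hg, h1, ho⟩ := H.bridge0 (by rw [P10.card₁ h, P10.card₂ h]; exact hlt)
  have hf := P10.pd_fam H.pd
  rw [P10.comp_incl h] at e ho hf
  exact ⟨χ, e, hg, by rw [classInner_self_eq_ip, h1]; simp,
    fun ω => classInner_eq_zero_of_ip hg (hf.isGen ω) (ho ω)⟩

end Cfsg.Agent.FT
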