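import Mathlib
import Cfsg.Agent.FT.PrimeTI
import Cfsg.Agent.FT.CycTIBridge

/-! # Hypothesis (4.2) for subgroups of the ambient group -/

set_option autoImplicit false
set_option maxSynthPendingDepth 3
set_option linter.unusedSectionVars false
set_option linter.style.haveILetI false

namespace Cfsg.Agent.FT

open Cfsg

theorem Mu.isCyclic_sup_of_coprime {L : Type*} [Group L] [Finite L] {A B : Subgroup L}
    (hA : IsCyclic A) (hB : IsCyclic B) (hc : ∀ a ∈ A, ∀ b ∈ B, a * b = b * a)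
    (hcop : (Nat.card A).Coprime (Nat.card B)) : IsCyclic ↥(A ⊔ B) := by
  obtain ⟨⟨a, ha⟩, ha'⟩ := hA.exists_generator
  obtain ⟨⟨b, hb⟩, hb'⟩ := hB.exists_generator
  have hab : Commute a b := hc a ha b hb
  have oa : orderOf a ∣ Nat.card A := A.orderOf_dvd_natCard ha
  have ob : orderOf b ∣ Nat.card B := B.orderOf_dvd_natCard hb
  have hco : (orderOf a).Coprime (orderOf b) := (hcop.coprime_dvd_left oa).coprime_dvd_right ob
  have e : A ⊔ B = Subgroup.zpowers (a * b) := by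
    refine le_antisymm (sup_le ?_ ?_) ?_
    · intro x hx
      obtain ⟨k, hk⟩ := ha' ⟨x, hx⟩
      have h1 : a ∈ Subgroup.zpowers (a * b) := by
        have h2 : (a * b) ^ orderOf b = a ^ orderOf b := by
          rw [hab.mul_pow, pow_orderOf_eq_one, mul_one]
        obtain ⟨m, hm⟩ := exists_pow_eq_self_of_coprime (x := a) hco.symm
        rw [← h2] at hm
        have := (Subgroup.zpowers (a * b)).pow_mem
          (Subgroup.pow_mem _ (Subgroup.mem_zpowers _) (orderOf b)) m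
        rwa [hm] at this
      have : x = a ^ k := (congrArg Subtype.val hk).symm
      rw [this]; exact Subgroup.zpow_mem _ h1 _
    · intro x hx
      obtain ⟨k, hk⟩ := hb' ⟨x, hx⟩
      have h1 : b ∈ Subgroup.zpowers (a * b) := by
        have h2 : (a * b) ^ orderOf a = b ^ orderOf a := by
          rw [hab.mul_pow, pow_orderOf_eq_one, one_mul]
        obtain ⟨m, hm⟩ := exists_pow_eq_self_of_coprime (x := b) hco
        rw [← h2] at hm
        have := (Subgroup.zpowers (a * b)).pow_mem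
          (Subgroup.pow_mem _ (Subgroup.mem_zpowers _) (orderOf a)) m
        rwa [hm] at this
      have : x = b ^ k := (congrArg Subtype.val hk).symm
      rw [this]; exact Subgroup.zpow_mem _ h1 _
    · rw [Subgroup.zpowers_le]
      exact Subgroup.mul_mem _ (Subgroup.mem_sup_left ha) (Subgroup.mem_sup_right hb)
  rw [e]
  infer_instance

/-- Hypothesis (4.2) as in the statements, for subgroups of `L`. -/
theorem primeTI_of_subgroups {L : Type*} [Group L] [Finite L] {K W W₁ W₂ : Subgroup L}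
    [hK : K.Normal] (hW : W₁ ⊔ W₂ = W) (hKW₁ : K ⊓ W₁ = ⊥) (hKW₁' : K ⊔ W₁ = ⊤) (hW₁ : W₁ ≠ ⊥)
    (hW₁c : IsCyclic W₁) (hHall : Nat.Coprime (Nat.card W₁) W₁.index) (hW₂ : W₂ ≠ ⊥)
    (hW₂c : IsCyclic W₂)
    (hC : ∀ x ∈ W₁, x ≠ 1 → K ⊓ Subgroup.centralizer ({x} : Set L) = W₂)
    (hodd : Odd (Nat.card W)) :
    PrimeTI (W₁.subgroupOf W) (W₂.subgroupOf W) W.subtype K := by
  have l₁ : W₁ ≤ W := hW ▸ le_sup_left
  have l₂ : W₂ ≤ W := hW ▸ le_sup_right
  obtain ⟨⟨a, ha⟩, ha1⟩ := (Subgroup.ne_bot_iff_exists_ne_one).1 hW₁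
  have hW₂K : W₂ ≤ K := hC a ha (fun e => ha1 (Subtype.ext e)) ▸ inf_le_left
  have hcomp : K.IsComplement' W₁ :=
    Subgroup.isComplement'_of_disjoint_and_mul_eq_univ (disjoint_iff.2 hKW₁) (by
      rw [← Subgroup.normal_mul, hKW₁', Subgroup.coe_top])
  have hcop : (Nat.card W₁).Coprime (Nat.card K) := by rwa [hcomp.index_eq_card] at hHall
  refine ⟨W.subtype_injective, ?_, hodd, subgroupOf_ne_bot l₁ hW₁, subgroupOf_ne_bot l₂ hW₂,
    isCompl_subgroupOf hW (eq_bot_iff.2 (hKW₁ ▸ le_inf (inf_le_right.trans hW₂K) inf_le_left)), hK,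
    ?_, ?_, fun x hx hx1 => ?_⟩
  · subst hW
    refine Mu.isCyclic_sup_of_coprime hW₁c hW₂c (fun x hx y hy => ?_)
      (hcop.coprime_dvd_right (Subgroup.card_dvd_of_le hW₂K))
    by_cases hx1 : x = 1
    · simp [hx1]
    · rw [← hC x hx hx1] at hy
      exact (Subgroup.mem_centralizer_singleton_iff.1 hy.2).symm
  · rw [Subgroup.map_subgroupOf_eq_of_le l₁]
    exact ⟨disjoint_iff.2 hKW₁, codisjoint_iff.2 hKW₁'⟩
  · rw [card_subgroupOf_of_le l₁]; exact hcop.symm
  · rw [Subgroup.map_subgroupOf_eq_of_le l₂]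
    exact hC x hx (fun e => hx1 (Subtype.ext e))

end Cfsg.Agent.FT
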